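import Mathlib
import Cfsg.Prelude.Def_Characters
import Cfsg.Prelude.Def_Blocks

/-!
# S4504, part C: statements of the pieces

Setting (`Ctx L p`): `L` a finite group, `p ≥ 5` a prime, `P` a Sylow `p`-subgroup of order `p`
generated by `x`, `C_L(x) = ⟨x⟩ × Z(L)`, `ξ` a faithful irreducible character of degree
`e = (p - 1) / 2` with `ξ (x ^ a) = per p ζ a` (the Gauss period `∑_{s a nonzero square} ζ ^ (a s)`),
and every nontrivial irreducible constituent `ψ` of `ξ * conj ξ` satisfies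
`(p + 1) * ∑_{u ∈ P} ψ u = 2 p ψ 1` and `ψ 1 ≤ p + 1`.
Goal (`Goal`): the number `n` of Sylow `p`-subgroups is at most `p + 1`.

Every `def` below with value in `Prop` is the exact statement of one piece; a piece `X` is a
theorem `main : Cfsg.Agent.Lib.Lead.BrHalf.X` (possibly with earlier pieces as hypotheses).
All sums over subsets of `L` are written `∑ g : L, if … then … else 0` (classical decidability).
-/

set_option autoImplicit false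

namespace Cfsg.Agent.Lib.Lead.BrHalf

open Cfsg
open scoped ComplexConjugate Classical

universe u

/-- The nonzero squares of `ZMod p`. -/
noncomputable def sq (p : ℕ) [Fact p.Prime] : Finset (ZMod p) :=
  Finset.univ.filter (fun s : ZMod p => s ≠ 0 ∧ IsSquare s)

/-- The Gauss period `∑_{s ∈ sq p} ζ ^ (a * s)`. -/
noncomputable def per (p : ℕ) [Fact p.Prime] (ζ : ℂ) (a : ℕ) : ℂ :=
  ∑ s ∈ sq p, ζ ^ (a * s.val)

/-- The fourth moment `|A|^4 + |B|^4` of the two periods. -/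
noncomputable def q4 (p : ℕ) : ℝ :=
  if p % 4 = 1 then ((p : ℝ) ^ 2 + 6 * p + 1) / 8 else ((p : ℝ) + 1) ^ 2 / 8

/-- Every nontrivial irreducible constituent `ψ` of `ξ₀ * conj ξ₀` has
`(p + 1) * ∑_{u ∈ P} ψ u = 2 p ψ 1`. -/
def HB {L : Type u} [Group L] [Fintype L] {p : ℕ} (P : Sylow p L) (ξ₀ : L → ℂ) : Prop :=
  ∀ ψ : IrrCharacter L, (∃ g, (ψ : L → ℂ) g ≠ 1) →
    (∑ g : L, ξ₀ g * conj (ξ₀ g) * conj ((ψ : L → ℂ) g)) ≠ 0 →
    ((p : ℂ) + 1) * (∑ u : L, if u ∈ (P : Subgroup L) then (ψ : L → ℂ) u else 0) =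
      2 * (p : ℂ) * (ψ : L → ℂ) 1

/-- The setting of part C. -/
structure Ctx (L : Type u) [Group L] [Fintype L] (p : ℕ) [Fact p.Prime] where
  hp5 : 5 ≤ p
  P : Sylow p L
  hP : Nat.card (P : Subgroup L) = p
  x : L
  hx : x ∈ (P : Subgroup L)
  hx1 : x ≠ 1
  hC : ∀ g : L, g * x = x * g → ∃ a : ℕ, ∃ z ∈ Subgroup.center L, g = x ^ a * z
  ξ : L → ℂ
  hξ : IsIrrCharacter L ξ
  hfaith : ∀ g : L, ξ g = ξ 1 → g = 1
  hdeg : 2 * charDegree ξ + 1 = p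
  ζ : ℂ
  hζ : IsPrimitiveRoot ζ p
  hres : ∀ a : ℕ, ξ (x ^ a) = per p ζ a
  hB : HB P ξ
  hB2 : ∀ ψ : IrrCharacter L, (∃ g, (ψ : L → ℂ) g ≠ 1) →
    (∑ g : L, ξ g * conj (ξ g) * conj ((ψ : L → ℂ) g)) ≠ 0 →
    charDegree (ψ : L → ℂ) ≤ p + 1

namespace Ctx

variable {L : Type u} [Group L] [Fintype L] {p : ℕ} [Fact p.Prime] (c : Ctx L p)

/-- the degree `e = (p - 1) / 2` of `ξ` -/
noncomputable def e : ℕ := charDegree c.ξ

/-- the number of Sylow `p`-subgroups -/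
noncomputable def n (_c : Ctx L p) : ℕ := Nat.card (Sylow p L)

/-- the order of the centre -/
noncomputable def zc (_c : Ctx L p) : ℕ := Nat.card (Subgroup.center L)

/-- `k` is a Galois exponent: `g ↦ g ^ k` fixes the `p`-regular elements and raises `x` to a
non-square power. -/
def GalK (_c : Ctx L p) (k : ℕ) : Prop :=
  k.Coprime (Nat.card L) ∧ ¬ IsSquare ((k : ℕ) : ZMod p) ∧ ∀ g : L, ¬ p ∣ orderOf g → g ^ k = g

/-- `D = ξ - ξ^σ`, where `ξ^σ g = ξ (g ^ k)`. -/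
noncomputable def D (k : ℕ) (g : L) : ℂ := c.ξ g - c.ξ (g ^ k)

/-- the class function `κ`: `±1` on the elements of order `p` (`+1` iff conjugate to a square
power of `x`), `0` elsewhere. -/
noncomputable def kap (u : L) : ℂ :=
  if orderOf u = p then (if c.ξ u = per p c.ζ 1 then 1 else -1) else 0

/-- `T g` = number of elements `u` of order `p` with `g * u` `p`-singular. -/
noncomputable def T (_c : Ctx L p) (g : L) : ℕ :=
  (Finset.univ.filter (fun u : L => orderOf u = p ∧ p ∣ orderOf (g * u))).card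

end Ctx

/-! ## Level 0: Gauss periods (no groups) -/

/-- `per (a * b) = per a` for `b` a nonzero square. -/
def PerMul : Prop :=
  ∀ (p : ℕ) [Fact p.Prime] (ζ : ℂ), IsPrimitiveRoot ζ p → ∀ a b : ℕ,
    ((b : ℕ) : ZMod p) ≠ 0 → IsSquare ((b : ℕ) : ZMod p) → per p ζ (a * b) = per p ζ a

/-- the period depends only on the quadratic class of `a`. -/
def PerClass : Prop :=
  ∀ (p : ℕ) [Fact p.Prime] (ζ : ℂ), IsPrimitiveRoot ζ p → ∀ a k : ℕ, ¬ p ∣ a →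
    (IsSquare ((a : ℕ) : ZMod p) → per p ζ a = per p ζ 1) ∧
    (¬ IsSquare ((a : ℕ) : ZMod p) → ¬ IsSquare ((k : ℕ) : ZMod p) → per p ζ a = per p ζ k)

/-- `per a = (p - 1) / 2` when `p ∣ a`. -/
def PerZero : Prop :=
  ∀ (p : ℕ) [Fact p.Prime], p ≠ 2 → ∀ (ζ : ℂ), IsPrimitiveRoot ζ p → ∀ a : ℕ, p ∣ a →
    per p ζ a = (((p - 1) / 2 : ℕ) : ℂ)

/-- `A + B = -1`. -/
def PerSum : Prop :=
  ∀ (p : ℕ) [Fact p.Prime], p ≠ 2 → ∀ (ζ : ℂ), IsPrimitiveRoot ζ p → ∀ a k : ℕ, ¬ p ∣ a →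
    ¬ IsSquare ((k : ℕ) : ZMod p) → per p ζ a + per p ζ (a * k) = -1

/-- `|A - B|^2 = p`. -/
def PerDiff : Prop :=
  ∀ (p : ℕ) [Fact p.Prime], p ≠ 2 → ∀ (ζ : ℂ), IsPrimitiveRoot ζ p → ∀ a k : ℕ, ¬ p ∣ a →
    ¬ IsSquare ((k : ℕ) : ZMod p) →
    (per p ζ a - per p ζ (a * k)) * conj (per p ζ a - per p ζ (a * k)) = (p : ℂ)

/-- `(A - B)^2 = ± p` (Gauss). -/
def PerSq : Prop :=
  ∀ (p : ℕ) [Fact p.Prime], p ≠ 2 → ∀ (ζ : ℂ), IsPrimitiveRoot ζ p → ∀ a k : ℕ, ¬ p ∣ a →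
    ¬ IsSquare ((k : ℕ) : ZMod p) →
    (per p ζ a - per p ζ (a * k)) ^ 2 = if p % 4 = 1 then (p : ℂ) else -(p : ℂ)

/-- `∑_{a < p} per a * conj (per (a k)) = 0`. -/
def PerOrth : Prop :=
  ∀ (p : ℕ) [Fact p.Prime], p ≠ 2 → ∀ (ζ : ℂ), IsPrimitiveRoot ζ p → ∀ k : ℕ,
    ¬ IsSquare ((k : ℕ) : ZMod p) →
    ∑ a ∈ Finset.range p, per p ζ a * conj (per p ζ (a * k)) = 0

/-- a sum over `1 ≤ a < p` of a function of the quadratic class. -/
def SqSum : Prop :=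
  ∀ (p : ℕ) [Fact p.Prime], p ≠ 2 → ∀ (G : ℕ → ℂ) (c₁ c₂ : ℂ),
    (∀ a, ¬ p ∣ a → IsSquare ((a : ℕ) : ZMod p) → G a = c₁) →
    (∀ a, ¬ p ∣ a → ¬ IsSquare ((a : ℕ) : ZMod p) → G a = c₂) →
    ∑ a ∈ Finset.Ico 1 p, G a = (((p - 1) / 2 : ℕ) : ℂ) * (c₁ + c₂)

/-- moments of the two periods from the three relations. -/
def Q4 : Prop :=
  ∀ (p : ℕ) (A B : ℂ), A + B = -1 → (A - B) * conj (A - B) = (p : ℂ) →
    ((A - B) ^ 2 = if p % 4 = 1 then (p : ℂ) else -(p : ℂ)) →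
    ‖A‖ ^ 2 + ‖B‖ ^ 2 = ((p : ℝ) + 1) / 2 ∧ ‖A‖ ^ 4 + ‖B‖ ^ 4 = q4 p

/-! ## Level 1: group structure -/

/-- the centre is a `p'`-group. -/
def CentP : Prop :=
  ∀ {L : Type u} [Group L] [Fintype L] (p : ℕ) [Fact p.Prime] (c : Ctx L p),
    ∀ z ∈ Subgroup.center L, ¬ p ∣ orderOf z

/-- elements of order `p` are conjugate to powers of `x`. -/
def OrdP : Prop :=
  ∀ {L : Type u} [Group L] [Fintype L] (p : ℕ) [Fact p.Prime] (c : Ctx L p) (u : L),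
    orderOf u = p → ∃ h : L, ∃ a : ℕ, ¬ p ∣ a ∧ u = h * c.x ^ a * h⁻¹

/-- `p`-singular elements are `h x^a h⁻¹ z` with `z` central. -/
def SingForm : Prop :=
  ∀ {L : Type u} [Group L] [Fintype L] (p : ℕ) [Fact p.Prime] (c : Ctx L p) (g : L),
    p ∣ orderOf g → ∃ h : L, ∃ a : ℕ, ¬ p ∣ a ∧ ∃ z ∈ Subgroup.center L, g = h * c.x ^ a * h⁻¹ * z

/-- sums over `P`. -/
def SumP : Prop :=
  ∀ {L : Type u} [Group L] [Fintype L] (p : ℕ) [Fact p.Prime] (c : Ctx L p) (F : L → ℂ),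
    (∑ u : L, if u ∈ (c.P : Subgroup L) then F u else 0) = ∑ a ∈ Finset.range p, F (c.x ^ a)

/-- sums of class functions over the elements of order `p`. -/
def CountP : Prop :=
  ∀ {L : Type u} [Group L] [Fintype L] (p : ℕ) [Fact p.Prime] (c : Ctx L p) (F : L → ℂ),
    IsClassFunction L F →
    (∑ u : L, if orderOf u = p then F u else 0) = (c.n : ℂ) * ∑ a ∈ Finset.Ico 1 p, F (c.x ^ a)

/-- sums over the `p`-singular elements of functions invariant under central translation. -/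
def CountSing : Prop :=
  ∀ {L : Type u} [Group L] [Fintype L] (p : ℕ) [Fact p.Prime] (c : Ctx L p) (F : L → ℂ),
    (∀ g : L, ∀ z ∈ Subgroup.center L, F (g * z) = F g) →
    (∑ g : L, if p ∣ orderOf g then F g else 0) =
      (c.zc : ℂ) * ∑ u : L, if orderOf u = p then F u else 0

/-- a Galois exponent exists. -/
def KEx : Prop :=
  ∀ {L : Type u} [Group L] [Fintype L] (p : ℕ) [Fact p.Prime] (c : Ctx L p), ∃ k : ℕ, c.GalK k

/-! ## Level 2: characters -/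

/-- Schur: class sums act as scalars. -/
def CS : Prop :=
  ∀ {L : Type u} [Group L] [Fintype L] (θ : L → ℂ), IsIrrCharacter L θ → ∀ (w : L → ℂ),
    IsClassFunction L w → ∀ g : L,
    ∑ u : L, w u * θ (g * u) = θ g / θ 1 * ∑ u : L, w u * θ u

/-- `ξ` on central translates. -/
def XiCent : Prop :=
  ∀ {L : Type u} [Group L] [Fintype L] (p : ℕ) [Fact p.Prime] (c : Ctx L p),
    c.ξ 1 = (c.e : ℂ) ∧ ∀ z ∈ Subgroup.center L, ‖c.ξ z‖ = (c.e : ℝ) ∧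
      ∀ g : L, c.ξ (g * z) = c.ξ g * (c.ξ z / c.ξ 1)

/-- `|D|^2 = p` on the `p`-singular elements, `D = 0` on the `p`-regular ones. -/
def DSq : Prop :=
  ∀ {L : Type u} [Group L] [Fintype L] (p : ℕ) [Fact p.Prime] (c : Ctx L p) (k : ℕ), c.GalK k →
    ∀ g : L, c.D k g * conj (c.D k g) = if p ∣ orderOf g then (p : ℂ) else 0

/-- the order of `L`. -/
def CardL : Prop :=
  ∀ {L : Type u} [Group L] [Fintype L] (p : ℕ) [Fact p.Prime] (c : Ctx L p),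
    2 * Nat.card L = p * (p - 1) * c.n * c.zc

/-- the class sum of the elements of order `p` on an irreducible character. -/
def AIrr : Prop :=
  ∀ {L : Type u} [Group L] [Fintype L] (p : ℕ) [Fact p.Prime] (c : Ctx L p) (θ : L → ℂ),
    IsIrrCharacter L θ → ∀ g : L,
    (∑ u : L, if orderOf u = p then θ (g * u) else 0) =
      θ g / θ 1 * ((c.n : ℂ) * ((∑ u : L, if u ∈ (c.P : Subgroup L) then θ u else 0) - θ 1))

/-- `HB` passes to the Galois conjugate. -/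
def HBSig : Prop :=
  ∀ {L : Type u} [Group L] [Fintype L] (p : ℕ) [Fact p.Prime] (c : Ctx L p) (k : ℕ), c.GalK k →
    HB c.P (fun g => c.ξ (g ^ k))

/-- the class sum on `ξ₀ * conj ξ₀`. -/
def APhi : Prop :=
  ∀ {L : Type u} [Group L] [Fintype L] (p : ℕ) [Fact p.Prime] (c : Ctx L p) (ξ₀ : L → ℂ),
    IsIrrCharacter L ξ₀ → HB c.P ξ₀ → ∀ g : L,
    (∑ u : L, if orderOf u = p then ξ₀ (g * u) * conj (ξ₀ (g * u)) else 0) =
      (c.n : ℂ) * ((p : ℂ) - 1) +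
        (c.n : ℂ) * ((p : ℂ) - 1) / ((p : ℂ) + 1) * (ξ₀ g * conj (ξ₀ g) - 1)

/-- the class sum on `Ψ = ξ * conj ξ^σ`. -/
def APsi : Prop :=
  ∀ {L : Type u} [Group L] [Fintype L] (p : ℕ) [Fact p.Prime] (c : Ctx L p) (k : ℕ), c.GalK k →
    ∀ g : L,
    (∑ u : L, if orderOf u = p then c.ξ (g * u) * conj (c.ξ ((g * u) ^ k)) else 0) =
      -(c.n : ℂ) * (c.ξ g * conj (c.ξ (g ^ k)))

/-- the value of `T g` for `p`-regular `g`. -/
def TG : Prop :=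
  ∀ {L : Type u} [Group L] [Fintype L] (p : ℕ) [Fact p.Prime] (c : Ctx L p) (k : ℕ), c.GalK k →
    ∀ g : L, ¬ p ∣ orderOf g →
    ((p : ℝ) + 1) * (c.T g : ℝ) = 2 * (c.n : ℝ) * ((p : ℝ) - 1 + 2 * ‖c.ξ g‖ ^ 2)

/-- the `κ`-weighted class sum. -/
def KapSum : Prop :=
  ∀ {L : Type u} [Group L] [Fintype L] (p : ℕ) [Fact p.Prime] (c : Ctx L p) (k : ℕ), c.GalK k →
    ∀ g : L, ¬ p ∣ orderOf g →
    ∑ u : L, c.kap u * c.D k (g * u) =
      2 * (c.n : ℂ) * (per p c.ζ 1 - per p c.ζ k) * c.ξ g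

/-- the key inequality `2 n |ξ g| ≤ T g`. -/
def LE : Prop :=
  ∀ {L : Type u} [Group L] [Fintype L] (p : ℕ) [Fact p.Prime] (c : Ctx L p) (k : ℕ), c.GalK k →
    ∀ g : L, ¬ p ∣ orderOf g → 2 * (c.n : ℝ) * ‖c.ξ g‖ ≤ (c.T g : ℝ)

/-- `|ξ g| ≤ 1` for `p`-regular non-central `g`. -/
def Small : Prop :=
  ∀ {L : Type u} [Group L] [Fintype L] (p : ℕ) [Fact p.Prime] (c : Ctx L p) (g : L),
    ¬ p ∣ orderOf g → g ∉ Subgroup.center L → ‖c.ξ g‖ ≤ 1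

/-- second moment. -/
def Mom2 : Prop :=
  ∀ {L : Type u} [Group L] [Fintype L] (p : ℕ) [Fact p.Prime] (c : Ctx L p),
    ∑ g : L, ‖c.ξ g‖ ^ 2 = (Nat.card L : ℝ)

/-- fourth moment. -/
def Mom4 : Prop :=
  ∀ {L : Type u} [Group L] [Fintype L] (p : ℕ) [Fact p.Prime] (c : Ctx L p),
    ∃ M : ℕ, ∑ g : L, ‖c.ξ g‖ ^ 4 = (Nat.card L : ℝ) * (M : ℝ) ∧ p + 1 ≤ 4 * M

/-- the central contribution. -/
def SumZ : Prop :=
  ∀ {L : Type u} [Group L] [Fintype L] (p : ℕ) [Fact p.Prime] (c : Ctx L p),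
    (∑ g : L, if g ∈ Subgroup.center L then ‖c.ξ g‖ ^ 4 - ‖c.ξ g‖ ^ 2 else 0) =
      (c.zc : ℝ) * ((c.e : ℝ) ^ 4 - (c.e : ℝ) ^ 2)

/-- the `p`-singular contribution. -/
def SumSing : Prop :=
  ∀ {L : Type u} [Group L] [Fintype L] (p : ℕ) [Fact p.Prime] (c : Ctx L p),
    (∑ g : L, if p ∣ orderOf g then ‖c.ξ g‖ ^ 4 - ‖c.ξ g‖ ^ 2 else 0) =
      (c.zc : ℝ) * (c.n : ℝ) * (c.e : ℝ) * (q4 p - ((p : ℝ) + 1) / 2)

/-- the goal of part C. -/
def Goal : Prop :=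
  ∀ {L : Type u} [Group L] [Fintype L] (p : ℕ) [Fact p.Prime] (c : Ctx L p), c.n ≤ p + 1

end Cfsg.Agent.Lib.Lead.BrHalf
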