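import Mathlib
import Cfsg.Prelude.Def_Characters
import Cfsg.Prelude.Def_Blocks
import Cfsg.Prelude.Def_Perm
import Cfsg.Agent.Lib.Lead.BrHalfStmt

/-!
# S4504, parts A (interface) and D: statements of the pieces

* `Red` : the reduction (helper76): under the hypotheses of S4504 there is a Sylow `p`-subgroup
  `P` of `G` such that `L = nc P` (normal closure) is perfect and carries a `Ctx L p` whose
  character is the restriction of `χ`.
* `CtxD G p` : the setting of the endgame in `G`; pieces `DCentL … DFinal`.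
* `Top` : the statement of S4504 (with `[Fact p.Prime]`).
-/

set_option autoImplicit false

namespace Cfsg.Agent.Lib.Lead.BrHalf

open Cfsg
open scoped ComplexConjugate Classical

universe u v

/-- the normal closure of a Sylow subgroup -/
abbrev nc {G : Type u} [Group G] {p : ℕ} (P : Sylow p G) : Subgroup G :=
  Subgroup.normalClosure ((P : Subgroup G) : Set G)

/-- The reduction: `L = nc P` is perfect and satisfies the hypotheses of part C with
`ξ = χ|L`. -/
def Red : Prop :=
  ∀ {G : Type u} [Group G] [Finite G] (p : ℕ) [Fact p.Prime], p ∣ Nat.card G →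
    ¬ p ^ 2 ∣ Nat.card G → (∀ H : Subgroup G, H.Normal → Nat.card H ≠ p) →
    ∀ (χ : G → ℂ), IsCharacter G χ → (∀ g : G, χ g = χ 1 → g = 1) → 2 * charDegree χ + 1 = p →
    ∃ P : Sylow p G, ∀ [Fintype ↥(nc P)],
      commutator ↥(nc P) = ⊤ ∧ ∃ c : Ctx ↥(nc P) p, c.ξ = fun g : ↥(nc P) => χ (g : G)

/-- The setting of part D. -/
structure CtxD (G : Type u) [Group G] [Finite G] (p : ℕ) [Fact p.Prime] where
  hp5 : 5 ≤ p
  P : Sylow p G
  hP : Nat.card (P : Subgroup G) = p
  hnn : ¬ (P : Subgroup G).Normal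
  hn : Nat.card (Sylow p G) = p + 1
  χ : G → ℂ
  hχ : IsCharacter G χ
  hfaith : ∀ g : G, χ g = χ 1 → g = 1
  hirr : IsIrrCharacter ↥(nc P) (fun g : ↥(nc P) => χ (g : G))
  hperf : commutator ↥(nc P) = ⊤
  x : G
  hx : orderOf x = p
  k : ℕ
  hk0 : ¬ p ∣ k
  hk : χ (x ^ k) ≠ χ x

/-- Sylow subgroups of `G` and of the normal closure of one of them are equinumerous. -/
def SylTransfer : Prop :=
  ∀ {G : Type u} [Group G] [Finite G] (p : ℕ) [Fact p.Prime] (P : Sylow p G),
    Nat.card (Sylow p ↥(nc P)) = Nat.card (Sylow p G)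

/-- From the reduction and part C to the setting of part D. -/
def DBridge : Prop :=
  ∀ {G : Type u} [Group G] [Finite G] (p : ℕ) [Fact p.Prime], p ∣ Nat.card G →
    ¬ p ^ 2 ∣ Nat.card G → (∀ H : Subgroup G, H.Normal → Nat.card H ≠ p) →
    ∀ (χ : G → ℂ), IsCharacter G χ → (∀ g : G, χ g = χ 1 → g = 1) →
    ∀ (P : Sylow p G) [Fintype ↥(nc P)], commutator ↥(nc P) = ⊤ →
    ∀ c : Ctx ↥(nc P) p, (c.ξ = fun g : ↥(nc P) => χ (g : G)) → c.n ≤ p + 1 →
    ∃ d : CtxD G p, d.χ = χ

/-- an element centralizing `L = nc P` is central in `G` (Schur + faithfulness). -/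
def DCentL : Prop :=
  ∀ {G : Type u} [Group G] [Finite G] (p : ℕ) [Fact p.Prime] (d : CtxD G p) (g : G),
    (∀ y ∈ nc d.P, g * y = y * g) → g ∈ Subgroup.center G

/-- an element normalizing every Sylow `p`-subgroup is central. -/
def DKer : Prop :=
  ∀ {G : Type u} [Group G] [Finite G] (p : ℕ) [Fact p.Prime] (d : CtxD G p) (g : G),
    (∀ Q : Sylow p G, g • Q = Q) → g ∈ Subgroup.center G

/-- `G / Z(G)` is the permutation group induced on the Sylow `p`-subgroups. -/
def DQuot : Prop :=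
  ∀ {G : Type u} [Group G] [Finite G] (p : ℕ) [Fact p.Prime] (d : CtxD G p),
    Nonempty (G ⧸ Subgroup.center G ≃* ↥(MulAction.toPermHom G (Sylow p G)).range)

/-- the order of the induced permutation group. -/
def DCard : Prop :=
  ∀ {G : Type u} [Group G] [Finite G] (p : ℕ) [Fact p.Prime] (d : CtxD G p),
    ∃ m : ℕ, m < p - 1 ∧
      Nat.card ↥(MulAction.toPermHom G (Sylow p G)).range = (p + 1) * p * m

/-- the semi-affine group of a finite field is solvable. -/
def DSemi : Prop :=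
  ∀ {F : Type v} [Field F] [Finite F], Group.IsSolvable ↥(Cfsg.semiaffineGroup F)

/-- `G` is not solvable (it contains the perfect group `L ≠ 1`). -/
def DNoSolv : Prop :=
  ∀ {G : Type u} [Group G] [Finite G] (p : ℕ) [Fact p.Prime] (d : CtxD G p), ¬ Group.IsSolvable G

/-- the endgame. -/
def DFinal : Prop :=
  ∀ {G : Type u} [Group G] [Finite G] (p : ℕ) [Fact p.Prime] (d : CtxD G p),
    Nonempty (G ⧸ Subgroup.center G ≃* Matrix.ProjectiveSpecialLinearGroup (Fin 2) (ZMod p))

/-- the statement of S4504. -/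
def Top : Prop :=
  ∀ {G : Type u} [Group G] [Finite G] (p : ℕ) [Fact p.Prime], p ∣ Nat.card G →
    ¬ p ^ 2 ∣ Nat.card G → (∀ H : Subgroup G, H.Normal → Nat.card H ≠ p) →
    ∀ (χ : G → ℂ), IsCharacter G χ → (∀ g : G, χ g = χ 1 → g = 1) → 2 * charDegree χ + 1 = p →
    Nonempty (G ⧸ Subgroup.center G ≃* Matrix.ProjectiveSpecialLinearGroup (Fin 2) (ZMod p))

/-- Top-level assembly. -/
theorem top_of (hRed : Red.{u}) (hGoal : Goal.{u}) (hBridge : DBridge.{u}) (hFinal : DFinal.{u}) :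
    Top.{u} := by
  intro G _ _ p _ hdiv hsq hnn χ hχ hfaith hdeg
  obtain ⟨P, hP⟩ := hRed p hdiv hsq hnn χ hχ hfaith hdeg
  let _ : Fintype ↥(nc P) := Fintype.ofFinite _
  obtain ⟨hperf, c, hc⟩ := hP
  obtain ⟨d, -⟩ := hBridge p hdiv hsq hnn χ hχ hfaith P hperf c hc (hGoal p c)
  exact hFinal p d

end Cfsg.Agent.Lib.Lead.BrHalf
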