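import Mathlib
import Cfsg.Prelude.Def_SolvableStructure

/-!
# S3998 (same order type as a supersolvable group => solvable): statements of the pieces

`rough X t` = the elements of `X` all of whose order's prime divisors are `≥ t`; `cnt X t` their number.
If `G` is supersolvable then for the largest prime `p` of `|G|` the Sylow `p`-subgroup is normal and
`cnt G p = |G|_p`; a group `H` with the same counts has a normal Sylow `p`-subgroup too, the quotients
by these Sylow subgroups have the same counts again (`CntQuot`, `CntOne`), and induction gives `H` solvable.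

Every `def` with value in `Prop` is the exact statement of one piece: a piece `Y` is a theorem
`main : Cfsg.Agent.Lib.Lead.OrdTypeStmt.Y.{u}` (universe polymorphic, no extra hypotheses).
-/

set_option autoImplicit false

namespace Cfsg.Agent.Lib.Lead.OrdTypeStmt

universe u v

/-- the elements all of whose order's prime divisors are `≥ t` -/
def rough (X : Type u) [Group X] (t : ℕ) : Set X :=
  {x | ∀ q : ℕ, q.Prime → q ∣ orderOf x → t ≤ q}

/-- the number of elements all of whose order's prime divisors are `≥ t` -/
noncomputable def cnt (X : Type u) [Group X] (t : ℕ) : ℕ := Nat.card (rough X t)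

/-- CNTZERO: for `t = 0` every element counts. -/
def CntZero : Prop :=
  ∀ (X : Type u) [Group X] [Finite X], cnt X 0 = Nat.card X

/-- CNTCONGR: groups with the same order type have the same counts. -/
def CntCongr : Prop :=
  ∀ (G : Type u) [Group G] [Finite G] (H : Type v) [Group H] [Finite H],
    (∀ m : ℕ, Nat.card {g : G // orderOf g = m} = Nat.card {h : H // orderOf h = m}) →
    ∀ t : ℕ, cnt G t = cnt H t

/-- CNTSYL: if `p` is the largest prime of `|X|` and the Sylow `p`-subgroup `P` is normal, then the
`p`-rough elements are exactly the elements of `P`. -/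
def CntSyl : Prop :=
  ∀ (X : Type u) [Group X] [Finite X] (p : ℕ) [Fact p.Prime],
    (∀ q : ℕ, q.Prime → q ∣ Nat.card X → q ≤ p) →
    ∀ P : Sylow p X, (P : Subgroup X).Normal → cnt X p = Nat.card P

/-- NORMCNT: if the number of `p`-rough elements is the order of a Sylow `p`-subgroup `P`, then `P` is
normal (`P ⊆ rough X p` always; equal finite sets; `rough X p` is closed under conjugation). -/
def NormCnt : Prop :=
  ∀ (X : Type u) [Group X] [Finite X] (p : ℕ) [Fact p.Prime] (P : Sylow p X),
    cnt X p = Nat.card P → (P : Subgroup X).Normal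

/-- CNTQUOT: for a normal `p`-subgroup `N` and `t ≤ p`, `rough X t` is the preimage of `rough (X ⧸ N) t`
(`orderOf x ∣ orderOf (x N) * |N|`), hence `cnt X t = |N| * cnt (X ⧸ N) t`
(`QuotientGroup.card_preimage_mk`). -/
def CntQuot : Prop :=
  ∀ (X : Type u) [Group X] [Finite X] (p : ℕ) [Fact p.Prime] (N : Subgroup X) [N.Normal],
    IsPGroup p N → ∀ t : ℕ, t ≤ p → cnt X t = Nat.card N * cnt (X ⧸ N) t

/-- CNTONE: if all primes dividing `|X|` are `< t`, only the identity is `t`-rough. -/
def CntOne : Prop :=
  ∀ (X : Type u) [Group X] [Finite X] (t : ℕ),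
    (∀ q : ℕ, q.Prime → q ∣ Nat.card X → q < t) → cnt X t = 1

/-- SOLVQ: an extension of a solvable group by a normal `p`-subgroup is solvable. -/
def SolvQ : Prop :=
  ∀ (X : Type u) [Group X] [Finite X] (p : ℕ) [Fact p.Prime] (N : Subgroup X) [N.Normal],
    IsPGroup p N → Group.IsSolvable (X ⧸ N) → Group.IsSolvable X

/-- The induction (assembled by the lead in `OrdTypeAsm`). -/
def Main : Prop :=
  ∀ (n : ℕ) (G : Type u) [Group G] [Finite G] (H : Type v) [Group H] [Finite H],
    Nat.card G = n → Cfsg.IsSupersolvable G → (∀ t : ℕ, cnt G t = cnt H t) → Group.IsSolvable H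

end Cfsg.Agent.Lib.Lead.OrdTypeStmt
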