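import Mathlib

/-!
Counting core of Conway's argument for the classes of the Leech lattice modulo 2
(requested by helper92): pure finite combinatorics.
-/

set_option autoImplicit false

namespace Cfsg.Agent.Lib.Lead.CountCore

/-- If the fibres of `π` on `S` are exactly the pairs `{x, -x}`, then `#S = 2 * #(π '' S)`. -/
theorem card_eq_two_mul_card_image {L Q : Type*} [AddCommGroup L] [DecidableEq L] [DecidableEq Q]
    (π : L → Q) (S : Finset L) (hneg : ∀ x ∈ S, -x ∈ S ∧ -x ≠ x ∧ π (-x) = π x)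
    (hfib : ∀ x ∈ S, ∀ y ∈ S, π x = π y → y = x ∨ y = -x) :
    S.card = 2 * (S.image π).card := by
  rw [Finset.card_eq_sum_card_image π S]
  have h : ∀ q ∈ S.image π, (S.filter fun a => π a = q).card = 2 := by
    intro q hq
    obtain ⟨x, hx, rfl⟩ := Finset.mem_image.mp hq
    have hset : (S.filter fun a => π a = π x) = {x, -x} := by
      ext y
      simp only [Finset.mem_filter, Finset.mem_insert, Finset.mem_singleton]
      constructor
      · rintro ⟨hy, hyx⟩
        exact hfib x hx y hy hyx.symm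
      · rintro (rfl | rfl)
        · exact ⟨hx, rfl⟩
        · exact ⟨(hneg x hx).1, (hneg x hx).2.2⟩
    rw [hset, Finset.card_pair (hneg x hx).2.1.symm]
  rw [Finset.sum_congr rfl h, Finset.sum_const, smul_eq_mul, mul_comm]

theorem count_core {L Q : Type*} [AddCommGroup L] [DecidableEq L] [Fintype Q] [DecidableEq Q]
    (π : L → Q) (hQ : Fintype.card Q = 2 ^ 24) (S2 S3 S4 : Finset L)
    (hneg2 : ∀ x ∈ S2, -x ∈ S2 ∧ -x ≠ x ∧ π (-x) = π x)
    (hneg3 : ∀ x ∈ S3, -x ∈ S3 ∧ -x ≠ x ∧ π (-x) = π x)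
    (h22 : ∀ x ∈ S2, ∀ y ∈ S2, π x = π y → y = x ∨ y = -x)
    (h33 : ∀ x ∈ S3, ∀ y ∈ S3, π x = π y → y = x ∨ y = -x)
    (h23 : ∀ x ∈ S2, ∀ y ∈ S3, π x ≠ π y) (h24 : ∀ x ∈ S2, ∀ y ∈ S4, π x ≠ π y)
    (h34 : ∀ x ∈ S3, ∀ y ∈ S4, π x ≠ π y)
    (h02 : ∀ x ∈ S2, π x ≠ π 0) (h03 : ∀ x ∈ S3, π x ≠ π 0) (h04 : ∀ x ∈ S4, π x ≠ π 0)
    (h48 : ∀ x ∈ S4, (S4.filter (fun y => π y = π x)).card ≤ 48)
    (c2 : S2.card = 196560) (c3 : 16773120 ≤ S3.card) (c4 : 398034000 ≤ S4.card) :
    (∀ q : Q, q = π 0 ∨ ∃ x ∈ S2 ∪ S3 ∪ S4, π x = q) ∧ S3.card = 16773120 ∧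
      S4.card = 398034000 ∧ ∀ x ∈ S4, (S4.filter (fun y => π y = π x)).card = 48 := by
  have e2 := card_eq_two_mul_card_image π S2 hneg2 h22
  have e3 := card_eq_two_mul_card_image π S3 hneg3 h33
  have e4 := Finset.card_eq_sum_card_image π S4
  have hfib4 : ∀ q ∈ S4.image π, (S4.filter fun a => π a = q).card ≤ 48 := by
    intro q hq
    obtain ⟨x, hx, rfl⟩ := Finset.mem_image.mp hq
    exact h48 x hx
  have l4 : S4.card ≤ 48 * (S4.image π).card := by
    rw [e4]
    calc ∑ b ∈ S4.image π, (S4.filter fun a => π a = b).card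
        ≤ ∑ _b ∈ S4.image π, 48 := Finset.sum_le_sum hfib4
      _ = 48 * (S4.image π).card := by rw [Finset.sum_const, smul_eq_mul, mul_comm]
  -- disjointness of the four pieces
  have d23 : Disjoint (S2.image π) (S3.image π) := by
    rw [Finset.disjoint_left]
    intro q hq2 hq3
    obtain ⟨x, hx, rfl⟩ := Finset.mem_image.mp hq2
    obtain ⟨y, hy, hxy⟩ := Finset.mem_image.mp hq3
    exact h23 x hx y hy hxy.symm
  have d24 : Disjoint (S2.image π) (S4.image π) := by
    rw [Finset.disjoint_left]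
    intro q hq2 hq4
    obtain ⟨x, hx, rfl⟩ := Finset.mem_image.mp hq2
    obtain ⟨y, hy, hxy⟩ := Finset.mem_image.mp hq4
    exact h24 x hx y hy hxy.symm
  have d34 : Disjoint (S3.image π) (S4.image π) := by
    rw [Finset.disjoint_left]
    intro q hq3 hq4
    obtain ⟨x, hx, rfl⟩ := Finset.mem_image.mp hq3
    obtain ⟨y, hy, hxy⟩ := Finset.mem_image.mp hq4
    exact h34 x hx y hy hxy.symm
  have d234 : Disjoint (S2.image π ∪ S3.image π) (S4.image π) :=
    Finset.disjoint_union_left.mpr ⟨d24, d34⟩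
  have d0 : Disjoint (S2.image π ∪ S3.image π ∪ S4.image π) {π 0} := by
    rw [Finset.disjoint_singleton_right]
    intro h
    rcases Finset.mem_union.mp h with h | h
    · rcases Finset.mem_union.mp h with h | h
      · obtain ⟨x, hx, hxy⟩ := Finset.mem_image.mp h
        exact h02 x hx hxy
      · obtain ⟨x, hx, hxy⟩ := Finset.mem_image.mp h
        exact h03 x hx hxy
    · obtain ⟨x, hx, hxy⟩ := Finset.mem_image.mp h
      exact h04 x hx hxy
  have hcardU : (S2.image π ∪ S3.image π ∪ S4.image π ∪ {π 0}).card =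
      (S2.image π).card + (S3.image π).card + (S4.image π).card + 1 := by
    rw [Finset.card_union_of_disjoint d0, Finset.card_union_of_disjoint d234,
      Finset.card_union_of_disjoint d23, Finset.card_singleton]
  have hle : (S2.image π ∪ S3.image π ∪ S4.image π ∪ {π 0}).card ≤ 2 ^ 24 := by
    rw [← hQ]; exact Finset.card_le_univ _
  have hpow : (2 : ℕ) ^ 24 = 16777216 := by norm_num
  rw [hcardU, hpow] at hle
  -- all inequalities are equalities
  have i3 : (S3.image π).card = 8386560 := by omega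
  have i4 : (S4.image π).card = 8292375 := by omega
  have s3 : S3.card = 16773120 := by omega
  have s4 : S4.card = 398034000 := by omega
  have huniv : S2.image π ∪ S3.image π ∪ S4.image π ∪ {π 0} = Finset.univ := by
    apply Finset.eq_univ_of_card
    rw [hcardU, hQ, hpow]
    omega
  refine ⟨?_, s3, s4, ?_⟩
  · intro q
    have hq : q ∈ S2.image π ∪ S3.image π ∪ S4.image π ∪ {π 0} := by
      rw [huniv]; exact Finset.mem_univ q
    rcases Finset.mem_union.mp hq with h | h
    · right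
      rcases Finset.mem_union.mp h with h | h
      · rcases Finset.mem_union.mp h with h | h
        · obtain ⟨x, hx, hxy⟩ := Finset.mem_image.mp h
          exact ⟨x, Finset.mem_union_left _ (Finset.mem_union_left _ hx), hxy⟩
        · obtain ⟨x, hx, hxy⟩ := Finset.mem_image.mp h
          exact ⟨x, Finset.mem_union_left _ (Finset.mem_union_right _ hx), hxy⟩
      · obtain ⟨x, hx, hxy⟩ := Finset.mem_image.mp h
        exact ⟨x, Finset.mem_union_right _ hx, hxy⟩
    · left
      exact Finset.mem_singleton.mp h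
  · have hsum : ∑ b ∈ S4.image π, (S4.filter fun a => π a = b).card =
        ∑ _b ∈ S4.image π, 48 := by
      rw [← e4, Finset.sum_const, smul_eq_mul, i4, s4]
    have hall := (Finset.sum_eq_sum_iff_of_le hfib4).mp hsum
    intro x hx
    exact hall (π x) (Finset.mem_image_of_mem π hx)

end Cfsg.Agent.Lib.Lead.CountCore
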