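import Mathlib

/-!
Frame bound (requested by helper92 for Conway's counting argument on the Leech lattice):
a family of nonzero integer vectors that are pairwise orthogonal for a positive definite
integral form has at most `dim` members.
-/

set_option autoImplicit false

namespace Cfsg.Agent.Lib.Lead.FrameBound

open Matrix

theorem frame_card_le {ι : Type*} [Fintype ι] [DecidableEq ι] (B : Matrix ι ι ℤ)
    (hpos : ∀ x : ι → ℤ, x ≠ 0 → 0 < x ⬝ᵥ (B *ᵥ x)) (F : Finset (ι → ℤ)) (h0 : ∀ x ∈ F, x ≠ 0)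
    (horth : ∀ x ∈ F, ∀ y ∈ F, x ≠ y → x ⬝ᵥ (B *ᵥ y) = 0) : F.card ≤ Fintype.card ι := by
  have hli : LinearIndependent ℤ (fun x : F => (x : ι → ℤ)) := by
    rw [Fintype.linearIndependent_iff]
    intro g hg y
    have h1 : (∑ x : F, g x • (x : ι → ℤ)) ⬝ᵥ (B *ᵥ (y : ι → ℤ)) = 0 := by
      rw [hg, zero_dotProduct]
    rw [sum_dotProduct] at h1
    have h2 : ∑ x : F, (g x • (x : ι → ℤ)) ⬝ᵥ (B *ᵥ (y : ι → ℤ)) =
        g y * ((y : ι → ℤ) ⬝ᵥ (B *ᵥ (y : ι → ℤ))) := by
      rw [Finset.sum_eq_single y]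
      · rw [smul_dotProduct, smul_eq_mul]
      · intro x _ hxy
        rw [smul_dotProduct, horth x x.2 y y.2 (fun h => hxy (Subtype.ext h)), smul_zero]
      · intro h; exact absurd (Finset.mem_univ y) h
    rw [h2] at h1
    have h3 := hpos y (h0 y y.2)
    rcases mul_eq_zero.mp h1 with h | h
    · exact h
    · omega
  have h4 := hli.fintype_card_le_finrank
  rw [Fintype.card_coe, Module.finrank_fintype_fun_eq_card] at h4
  exact h4

end Cfsg.Agent.Lib.Lead.FrameBound
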