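import Cfsg.Agent.Lib.Lead.BrHalfStmt
import Cfsg.Agent.Lib.Helper78.BrCPerMul
import Cfsg.Agent.Lib.Helper78.BrCPerClass
import Cfsg.Agent.Lib.Helper78.BrCSqSum
import Cfsg.Agent.Lib.Helper78.BrCQ4
import Cfsg.Agent.Lib.Helper21.BrCPerSum
import Cfsg.Agent.Lib.Helper21.BrCPerDiff
import Cfsg.Agent.Lib.Helper21.BrCPerSq
import Cfsg.Agent.Lib.Helper21.BrCPerOrth
import Cfsg.Agent.Lib.Helper59.BrCCentP
import Cfsg.Agent.Lib.Helper59.BrCSumP
import Cfsg.Agent.Lib.Helper59.BrCKEx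
import Cfsg.Agent.Lib.Helper59.BrCXiCent
import Cfsg.Agent.Lib.Helper62.BrCOrdP
import Cfsg.Agent.Lib.Helper62.BrCSingForm
import Cfsg.Agent.Lib.Helper62.BrCCountP
import Cfsg.Agent.Lib.Helper62.BrCCountSing
import Cfsg.Agent.Lib.Helper71.BrCCS
import Cfsg.Agent.Lib.Helper71.BrCLE
import Cfsg.Agent.Lib.Helper71.BrCMom2
import Cfsg.Agent.Lib.Helper71.BrCSumZ
import Cfsg.Agent.Lib.Helper63.BrCDSq
import Cfsg.Agent.Lib.Helper63.BrCAIrr
import Cfsg.Agent.Lib.Helper2.BrCCardL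
import Cfsg.Agent.Lib.Helper2.BrCKapSum
import Cfsg.Agent.Lib.Helper20.BrCHBSig
import Cfsg.Agent.Lib.Helper16.BrCAPhi
import Cfsg.Agent.Lib.Helper16.BrCTG
import Cfsg.Agent.Lib.Helper16.BrCMom4
import Cfsg.Agent.Lib.Helper16.BrCSumSing
import Cfsg.Agent.Lib.Helper51.BrCAPsi
import Cfsg.Agent.Lib.Helper65.BrCSmall
import Cfsg.Agent.Lib.Helper65.BrCGoal

/-!
# S4504, part C: assembly of the pieces (`n_p ≤ p + 1`)
-/

set_option autoImplicit false

namespace Cfsg.Agent.Lib.Lead.BrHalfAsm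

open Cfsg.Agent.Lib.Lead.BrHalf

universe u

theorem perClass : PerClass := Cfsg.Agent.Lib.Helper78.BrCPerClass.main Cfsg.Agent.Lib.Helper78.BrCPerMul.main

theorem perDiff : PerDiff := Cfsg.Agent.Lib.Helper21.BrCPerDiff.main

theorem centP : CentP.{u} := Cfsg.Agent.Lib.Helper59.BrCCentP.main

theorem singForm : SingForm.{u} :=
  Cfsg.Agent.Lib.Helper62.BrCSingForm.main centP Cfsg.Agent.Lib.Helper62.BrCOrdP.main

theorem countP : CountP.{u} := Cfsg.Agent.Lib.Helper62.BrCCountP.main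

theorem countSing : CountSing.{u} := Cfsg.Agent.Lib.Helper62.BrCCountSing.main centP singForm

theorem kEx : KEx.{u} := Cfsg.Agent.Lib.Helper59.BrCKEx.main

theorem xiCent : XiCent.{u} := Cfsg.Agent.Lib.Helper59.BrCXiCent.main

theorem cS : CS.{u} := Cfsg.Agent.Lib.Helper71.BrCCS.main

theorem dSq : DSq.{u} := Cfsg.Agent.Lib.Helper63.BrCDSq.main centP singForm xiCent perDiff

theorem cardL : CardL.{u} := Cfsg.Agent.Lib.Helper2.BrCCardL.main kEx dSq countSing countP perDiff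

theorem aIrr : AIrr.{u} :=
  Cfsg.Agent.Lib.Helper63.BrCAIrr.main cS countP Cfsg.Agent.Lib.Helper59.BrCSumP.main

theorem aPhi : APhi.{u} := Cfsg.Agent.Lib.Helper16.BrCAPhi.main aIrr

theorem aPsi : APsi.{u} :=
  Cfsg.Agent.Lib.Helper51.BrCAPsi.main aIrr Cfsg.Agent.Lib.Helper59.BrCSumP.main
    Cfsg.Agent.Lib.Helper21.BrCPerOrth.main

theorem tG : TG.{u} :=
  Cfsg.Agent.Lib.Helper16.BrCTG.main dSq aPhi Cfsg.Agent.Lib.Helper20.BrCHBSig.main aPsi

theorem kapSum : KapSum.{u} :=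
  Cfsg.Agent.Lib.Helper2.BrCKapSum.main cS countP Cfsg.Agent.Lib.Helper78.BrCSqSum.main perClass
    perDiff xiCent

theorem lE : LE.{u} := Cfsg.Agent.Lib.Helper71.BrCLE.main kapSum dSq perDiff

theorem small : Small.{u} := Cfsg.Agent.Lib.Helper65.BrCSmall.main kEx tG lE

theorem sumSing : SumSing.{u} :=
  Cfsg.Agent.Lib.Helper16.BrCSumSing.main countSing countP xiCent kEx
    Cfsg.Agent.Lib.Helper78.BrCSqSum.main perClass Cfsg.Agent.Lib.Helper21.BrCPerSum.main perDiff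
    Cfsg.Agent.Lib.Helper21.BrCPerSq.main Cfsg.Agent.Lib.Helper78.BrCQ4.main

/-- Part C: the number of Sylow `p`-subgroups is at most `p + 1`. -/
theorem goal : Goal.{u} :=
  Cfsg.Agent.Lib.Helper65.BrCGoal.main small Cfsg.Agent.Lib.Helper71.BrCMom2.main
    Cfsg.Agent.Lib.Helper16.BrCMom4.main (Cfsg.Agent.Lib.Helper71.BrCSumZ.main xiCent) sumSing
    centP cardL

end Cfsg.Agent.Lib.Lead.BrHalfAsm
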