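import Mathlib
import Cfsg.Agent.S0393

/-!
The index of `2Λ` in `Λ` for a full-rank sublattice `Λ` of `ι → ℤ` is `2 ^ card ι`;
in particular `[Λ : 2Λ] = 2 ^ 24` for the Leech lattice (requested by helper92).
-/

set_option autoImplicit false

namespace Cfsg.Agent.Lib.Lead.LeechModTwo

/-- For a finite-index subgroup `Λ` of `ι → ℤ`, the index of `2Λ` in `Λ` is `2 ^ card ι`. -/
theorem index_two_smul {ι : Type*} [Fintype ι] (Λ : AddSubgroup (ι → ℤ)) (hΛ : Λ.index ≠ 0) :
    ((zsmulAddGroupHom (2 : ℤ) : ↥Λ →+ ↥Λ).range).index = 2 ^ Fintype.card ι := by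
  classical
  set D : (ι → ℤ) →+ (ι → ℤ) := zsmulAddGroupHom (2 : ℤ) with hD
  have hDapp : ∀ (v : ι → ℤ) (i : ι), D v i = 2 * v i := by
    intro v i
    simp [hD]
  have hDinj : Function.Injective D := by
    intro v w h
    funext i
    have h1 := congrFun h i
    rw [hDapp, hDapp] at h1
    omega
  -- reduction mod 2
  let r : (ι → ℤ) →+ (ι → ZMod 2) := (Int.castAddHom (ZMod 2)).compLeft ι
  have hrapp : ∀ (v : ι → ℤ) (i : ι), r v i = ((v i : ℤ) : ZMod 2) := fun v i => rfl
  have hr : Function.Surjective r := by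
    intro w
    refine ⟨fun i => ((w i).val : ℤ), ?_⟩
    funext i
    rw [hrapp]
    simp
  have hrange : D.range = r.ker := by
    ext v
    rw [AddMonoidHom.mem_range, AddMonoidHom.mem_ker]
    constructor
    · rintro ⟨w, rfl⟩
      funext i
      rw [hrapp, hDapp]
      have : ((2 * w i : ℤ) : ZMod 2) = 0 := by
        rw [ZMod.intCast_zmod_eq_zero_iff_dvd]
        exact dvd_mul_right 2 (w i)
      simpa using this
    · intro h
      have h2 : ∀ i, (2 : ℤ) ∣ v i := fun i => by
        have h3 := congrFun h i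
        rw [hrapp] at h3
        exact (ZMod.intCast_zmod_eq_zero_iff_dvd (v i) 2).mp (by simpa using h3)
      refine ⟨fun i => v i / 2, ?_⟩
      funext i
      rw [hDapp]
      exact Int.mul_ediv_cancel' (h2 i)
  have hDrange : D.range.index = 2 ^ Fintype.card ι := by
    rw [hrange, AddSubgroup.index_ker, AddMonoidHom.range_eq_top.mpr hr, AddSubgroup.card_top,
      Nat.card_eq_fintype_card, Fintype.card_fun, ZMod.card]
  have hmap : (Λ.map D).index = Λ.index * 2 ^ Fintype.card ι := by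
    rw [AddSubgroup.index_map, (AddMonoidHom.ker_eq_bot_iff D).mpr hDinj, sup_bot_eq, hDrange]
  have hle : Λ.map D ≤ Λ := by
    rintro _ ⟨w, hw, rfl⟩
    exact Λ.zsmul_mem hw 2
  have hrel := AddSubgroup.relIndex_mul_index hle
  rw [hmap] at hrel
  have hrel' : (Λ.map D).relIndex Λ = 2 ^ Fintype.card ι := by
    have h4 : (Λ.map D).relIndex Λ * Λ.index = 2 ^ Fintype.card ι * Λ.index := by
      rw [hrel, mul_comm]
    exact Nat.eq_of_mul_eq_mul_right (Nat.pos_of_ne_zero hΛ) h4
  have hsub : (zsmulAddGroupHom (2 : ℤ) : ↥Λ →+ ↥Λ).range = (Λ.map D).addSubgroupOf Λ := by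
    ext ⟨v, hv⟩
    rw [AddMonoidHom.mem_range, AddSubgroup.mem_addSubgroupOf]
    constructor
    · rintro ⟨w, hw⟩
      refine ⟨w, w.2, ?_⟩
      have h5 := congrArg Subtype.val hw
      simpa [hD] using h5
    · rintro ⟨w, hw, hwv⟩
      refine ⟨⟨w, hw⟩, Subtype.ext ?_⟩
      simpa [hD] using hwv
  rw [hsub]
  exact hrel'

/-- The Leech lattice has index `2 ^ 24` over its double. -/
theorem leech_mod_two_index :
    ((zsmulAddGroupHom (2 : ℤ) : ↥Cfsg.leechLattice →+ ↥Cfsg.leechLattice).range).index = 2 ^ 24 := by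
  have h := index_two_smul Cfsg.leechLattice (by rw [Cfsg.Agent.S0393.result]; positivity)
  rw [h]
  rfl

end Cfsg.Agent.Lib.Lead.LeechModTwo
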