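import Mathlib
import Cfsg.Agent.Lib.Lead.OrdTypeStmt
import Cfsg.Agent.Lib.Helper9.SSHall

/-!
# S3998: the induction, from the pieces of `OrdTypeStmt`
-/

set_option autoImplicit false

namespace Cfsg.Agent.Lib.Lead.OrdTypeAsm

open Cfsg.Agent.Lib.Lead.OrdTypeStmt

universe u v

theorem main_of (h1u : CntZero.{u}) (h1v : CntZero.{v}) (h3 : CntSyl.{u}) (h4 : NormCnt.{v})
    (h5u : CntQuot.{u}) (h5v : CntQuot.{v}) (h6u : CntOne.{u}) (h6v : CntOne.{v})
    (h7 : SolvQ.{v}) : Main.{u, v} := by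
  intro n
  induction n using Nat.strong_induction_on with
  | _ n ih =>
    intro G _ _ H _ _ hn hG hc
    have hHn : Nat.card H = n := by rw [← h1v H, ← hc 0, h1u G, hn]
    by_cases hn1 : n = 1
    · have : Subsingleton H := (Nat.card_eq_one_iff_unique.mp (hHn.trans hn1)).1
      exact Group.isSolvable_of_comm (fun a b => Subsingleton.elim _ _)
    have hnpos : 0 < n := hn ▸ Nat.card_pos
    obtain ⟨p, hp, hpd, hmax⟩ : ∃ p, p.Prime ∧ p ∣ n ∧ ∀ q : ℕ, q.Prime → q ∣ n → q ≤ p := by
      have hne : n.primeFactors.Nonempty := Nat.nonempty_primeFactors.mpr (by omega)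
      refine ⟨n.primeFactors.max' hne, ?_, ?_, ?_⟩
      · exact Nat.prime_of_mem_primeFactors (Finset.max'_mem _ hne)
      · exact Nat.dvd_of_mem_primeFactors (Finset.max'_mem _ hne)
      · intro q hq hqd
        exact Finset.le_max' _ q (Nat.mem_primeFactors.mpr ⟨hq, hqd, by omega⟩)
    have : Fact p.Prime := ⟨hp⟩
    obtain ⟨PG⟩ : Nonempty (Sylow p G) := inferInstance
    obtain ⟨PH⟩ : Nonempty (Sylow p H) := inferInstance
    have hmaxG : ∀ q : ℕ, q.Prime → q ∣ Nat.card G → q ≤ p := fun q hq hqd => hmax q hq (hn ▸ hqd)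
    have hPGn : (PG : Subgroup G).Normal :=
      Cfsg.Agent.Lib.Helper9.SSHall.sylow_normal_of_supersolvable hG p (hn ▸ hpd) hmaxG PG
    have hcardP : Nat.card PG = Nat.card PH := by
      rw [Sylow.card_eq_multiplicity, Sylow.card_eq_multiplicity, hn, hHn]
    have hPHn : (PH : Subgroup H).Normal :=
      h4 H p PH (by rw [← hc p, h3 G p hmaxG PG hPGn, hcardP])
    have := hPGn
    have := hPHn
    have hPpos : 0 < Nat.card PG := Nat.card_pos
    have hPgt : 1 < Nat.card PG := by
      rw [Sylow.card_eq_multiplicity, hn]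
      have h0 : 0 < n.factorization p := hp.factorization_pos_of_dvd (by omega) hpd
      exact Nat.one_lt_pow (by omega) hp.one_lt
    have hGq : Nat.card (G ⧸ (PG : Subgroup G)) * Nat.card PG = n := by
      rw [← hn]; exact (Subgroup.card_eq_card_quotient_mul_card_subgroup _).symm
    have hHq : Nat.card (H ⧸ (PH : Subgroup H)) * Nat.card PH = n := by
      rw [← hHn]; exact (Subgroup.card_eq_card_quotient_mul_card_subgroup _).symm
    have hqpos : 0 < Nat.card (G ⧸ (PG : Subgroup G)) := Nat.card_pos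
    have hlt : Nat.card (G ⧸ (PG : Subgroup G)) < n := by nlinarith
    have hqG : Cfsg.IsSupersolvable (G ⧸ (PG : Subgroup G)) :=
      Cfsg.Agent.H9.isSupersolvable_of_surjective (QuotientGroup.mk' _)
        (QuotientGroup.mk'_surjective _) hG
    have hcq : ∀ t : ℕ, cnt (G ⧸ (PG : Subgroup G)) t = cnt (H ⧸ (PH : Subgroup H)) t := by
      intro t
      by_cases ht : t ≤ p
      · have e1 := h5u G p (PG : Subgroup G) PG.isPGroup' t ht
        have e2 := h5v H p (PH : Subgroup H) PH.isPGroup' t ht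
        have h3' : Nat.card PG * cnt (G ⧸ (PG : Subgroup G)) t
            = Nat.card PG * cnt (H ⧸ (PH : Subgroup H)) t := by
          rw [← e1, hc t, e2, hcardP]
        exact Nat.eq_of_mul_eq_mul_left hPpos h3'
      · have hpt : p < t := not_le.mp ht
        rw [h6u _ t (fun q hq hqd => lt_of_le_of_lt (hmax q hq (hqd.trans ⟨_, hGq.symm⟩)) hpt),
          h6v _ t (fun q hq hqd => lt_of_le_of_lt (hmax q hq (hqd.trans ⟨_, hHq.symm⟩)) hpt)]
    have hsol : Group.IsSolvable (H ⧸ (PH : Subgroup H)) :=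
      ih _ hlt (G ⧸ (PG : Subgroup G)) (H ⧸ (PH : Subgroup H)) rfl hqG hcq
    exact h7 H p (PH : Subgroup H) PH.isPGroup' hsol

end Cfsg.Agent.Lib.Lead.OrdTypeAsm
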