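import Mathlib
import Cfsg.Prelude.Def_KGroupFacts

set_option autoImplicit false

namespace Cfsg.Agent.Lib.Lead.Stem

universe u

/-- A finite group all of whose finite stem extensions have trivial kernel has trivial Schur multiplier. -/
theorem hasCyclicSchurMultiplier_one {G : Type u} [Group G] [Finite G]
    (h : ∀ (Γ : Type u) [Group Γ] [Finite Γ] (σ : Γ →* G), Cfsg.IsStemExtension σ → σ.ker = ⊥) :
    Cfsg.HasCyclicSchurMultiplier G 1 := by
  constructor
  · refine ⟨G, inferInstance, inferInstance, MonoidHom.id G, ?_, ?_⟩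
    · refine ⟨Function.surjective_id, ?_, ?_⟩ <;> simp [MonoidHom.ker_id]
    · refine ⟨?_⟩
      have h1 : (MonoidHom.id G).ker = ⊥ := MonoidHom.ker_id
      rw [h1]
      haveI : Unique (Multiplicative (ZMod 1)) := by
        change Unique (ZMod 1)
        infer_instance
      exact MulEquiv.ofUnique
  · intro Γ _ _ σ hσ
    have hk := h Γ σ hσ
    refine ⟨1, ?_⟩
    intro x
    refine ⟨1, ?_⟩
    have hx : (x : Γ) ∈ (⊥ : Subgroup Γ) := hk ▸ x.2
    rw [Subgroup.mem_bot] at hx
    apply Subtype.ext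
    simp [hx]

/-- The preimage of a cyclic subgroup under a central extension is commutative. -/
theorem comap_zpowers_comm {Γ G : Type*} [Group Γ] [Group G] (σ : Γ →* G)
    (hs : Function.Surjective σ) (hc : σ.ker ≤ Subgroup.center Γ) (g : G)
    (a b : Γ) (ha : a ∈ (Subgroup.zpowers g).comap σ) (hb : b ∈ (Subgroup.zpowers g).comap σ) :
    a * b = b * a := by
  obtain ⟨t, rfl⟩ := hs g
  obtain ⟨i, hi⟩ := Subgroup.mem_zpowers_iff.mp (Subgroup.mem_comap.mp ha)
  obtain ⟨j, hj⟩ := Subgroup.mem_zpowers_iff.mp (Subgroup.mem_comap.mp hb)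
  have hza : a * t ^ (-i) ∈ Subgroup.center Γ :=
    hc (by rw [MonoidHom.mem_ker, map_mul, map_zpow, zpow_neg, ← hi, mul_inv_cancel])
  have hzb : b * t ^ (-j) ∈ Subgroup.center Γ :=
    hc (by rw [MonoidHom.mem_ker, map_mul, map_zpow, zpow_neg, ← hj, mul_inv_cancel])
  have ea : a = (a * t ^ (-i)) * t ^ i := by group
  have eb : b = (b * t ^ (-j)) * t ^ j := by group
  have c1 := Subgroup.mem_center_iff.mp hza
  have c2 := Subgroup.mem_center_iff.mp hzb
  calc a * b = ((a * t ^ (-i)) * t ^ i) * ((b * t ^ (-j)) * t ^ j) := by rw [← ea, ← eb]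
    _ = (a * t ^ (-i)) * (t ^ i * (b * t ^ (-j))) * t ^ j := by group
    _ = (a * t ^ (-i)) * ((b * t ^ (-j)) * t ^ i) * t ^ j := by rw [c2 (t ^ i)]
    _ = ((a * t ^ (-i)) * (b * t ^ (-j))) * (t ^ i * t ^ j) := by group
    _ = ((b * t ^ (-j)) * (a * t ^ (-i))) * (t ^ j * t ^ i) := by
        rw [c2 (a * t ^ (-i)), ← zpow_add, ← zpow_add, add_comm]
    _ = (b * t ^ (-j)) * ((a * t ^ (-i)) * t ^ j) * t ^ i := by group
    _ = (b * t ^ (-j)) * (t ^ j * (a * t ^ (-i))) * t ^ i := by rw [c1 (t ^ j)]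
    _ = ((b * t ^ (-j)) * t ^ j) * ((a * t ^ (-i)) * t ^ i) := by group
    _ = b * a := by rw [← ea, ← eb]

/-- Transfer bound: in a stem extension, every element of the kernel is killed by the index of any
commutative subgroup of finite index. -/
theorem ker_pow_index_eq_one {Γ G : Type*} [Group Γ] [Group G] (σ : Γ →* G)
    (hσ : Cfsg.IsStemExtension σ) (H : Subgroup Γ) [H.FiniteIndex]
    (hH : ∀ a ∈ H, ∀ b ∈ H, a * b = b * a) (k : Γ) (hk : k ∈ σ.ker) : k ^ H.index = 1 := by
  obtain ⟨_, hcent, hcomm⟩ := hσ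
  let _ : CommGroup H :=
    { (inferInstance : Group H) with mul_comm := fun a b => Subtype.ext (hH a a.2 b b.2) }
  have hkc := Subgroup.mem_center_iff.mp (hcent hk)
  have hpow : ∀ (n : ℕ) (g₀ : Γ), g₀ * k ^ n = k ^ n * g₀ := by
    intro n g₀
    induction n with
    | zero => simp
    | succ m ih => rw [pow_succ, ← mul_assoc, ih, mul_assoc, hkc g₀, mul_assoc]
  have key : ∀ (n : ℕ) (g₀ : Γ), g₀⁻¹ * k ^ n * g₀ ∈ H → g₀⁻¹ * k ^ n * g₀ = k ^ n := by
    intro n g₀ _
    rw [mul_assoc, ← hpow n g₀, inv_mul_cancel_left]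
  have h1 := MonoidHom.transfer_eq_pow (MonoidHom.id H) k key
  have h2 : MonoidHom.transfer (MonoidHom.id H) k = 1 :=
    MonoidHom.mem_ker.mp (Abelianization.commutator_subset_ker _ (hcomm hk))
  rw [h2] at h1
  have := congrArg Subtype.val h1
  simpa using this.symm

/-- In a finite stem extension of `G`, the kernel is killed by the index of every cyclic subgroup of `G`. -/
theorem ker_pow_index_zpowers_eq_one {Γ G : Type*} [Group Γ] [Finite Γ] [Group G] (σ : Γ →* G)
    (hσ : Cfsg.IsStemExtension σ) (g : G) (k : Γ) (hk : k ∈ σ.ker) :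
    k ^ (Subgroup.zpowers g).index = 1 := by
  have h := ker_pow_index_eq_one σ hσ ((Subgroup.zpowers g).comap σ)
    (fun a ha b hb => comap_zpowers_comm σ hσ.1 hσ.2.1 g a b ha hb) k hk
  rwa [Subgroup.index_comap_of_surjective _ hσ.1] at h

end Cfsg.Agent.Lib.Lead.Stem
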