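import Mathlib
import Cfsg.Prelude.Def_KGroupFacts

set_option autoImplicit false

namespace Cfsg.Agent.Lib.Lead.StemDihedralType

/-- Setting: a central extension `σ : Γ →* G`, lifts `A X : Γ` such that every element of `G` is
`σ X ^ ε * σ A ^ m` and `σ X` inverts `σ A`. Then the commutator subgroup of `Γ` is generated by
`c = A * A * k₀⁻¹` with `k₀ = A * (X * A * X⁻¹)` central. -/
theorem commutator_le_zpowers {Γ G : Type*} [Group Γ] [Group G] (σ : Γ →* G)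
    (hc : σ.ker ≤ Subgroup.center Γ) (A X : Γ)
    (hgen : ∀ g : G, ∃ ε m : ℕ, g = σ X ^ ε * σ A ^ m)
    (hinv : σ X * σ A * (σ X)⁻¹ = (σ A)⁻¹) :
    commutator Γ ≤ Subgroup.zpowers (A * A * (A * (X * A * X⁻¹))⁻¹) := by
  set k₀ := A * (X * A * X⁻¹) with hk₀
  set c := A * A * k₀⁻¹ with hcdef
  have cen : ∀ k : Γ, σ k = 1 → ∀ y : Γ, y * k = k * y := fun k hk y =>
    Subgroup.mem_center_iff.mp (hc (MonoidHom.mem_ker.mpr hk)) y
  have hk₀σ : σ k₀ = 1 := by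
    rw [hk₀, map_mul, map_mul, map_mul, map_inv, hinv, mul_inv_cancel]
  have ck₀ := cen k₀ hk₀σ
  have ck₀i : ∀ y : Γ, y * k₀⁻¹ = k₀⁻¹ * y := fun y => by
    have := ck₀ y
    calc y * k₀⁻¹ = k₀⁻¹ * (k₀ * y) * k₀⁻¹ := by group
      _ = k₀⁻¹ * (y * k₀) * k₀⁻¹ := by rw [this]
      _ = k₀⁻¹ * y := by group
  have hXA : X * A * X⁻¹ = A⁻¹ * k₀ := by rw [hk₀]; group
  -- normal form
  have nf : ∀ g : Γ, ∃ (ε m : ℕ) (k : Γ), σ k = 1 ∧ g = k * X ^ ε * A ^ m := by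
    intro g
    obtain ⟨ε, m, h⟩ := hgen (σ g)
    refine ⟨ε, m, g * (X ^ ε * A ^ m)⁻¹, ?_, by group⟩
    rw [map_mul, map_inv, map_mul, map_pow, map_pow, ← h, mul_inv_cancel]
  -- conjugation of c
  have hAc : A * c * A⁻¹ = c := by
    rw [hcdef]
    calc A * (A * A * k₀⁻¹) * A⁻¹ = A * A * (A * k₀⁻¹) * A⁻¹ := by group
      _ = A * A * (k₀⁻¹ * A) * A⁻¹ := by rw [ck₀i A]
      _ = A * A * k₀⁻¹ := by group
  have hXc : X * c * X⁻¹ = c⁻¹ := by
    rw [hcdef]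
    calc X * (A * A * k₀⁻¹) * X⁻¹ = (X * A * X⁻¹) * (X * A * X⁻¹) * (X * k₀⁻¹) * X⁻¹ := by group
      _ = (A⁻¹ * k₀) * (A⁻¹ * k₀) * (k₀⁻¹ * X) * X⁻¹ := by rw [hXA, ck₀i X]
      _ = A⁻¹ * (k₀ * A⁻¹) := by group
      _ = A⁻¹ * (A⁻¹ * k₀) := by rw [← ck₀ A⁻¹]
      _ = (A⁻¹ * A⁻¹) * k₀ := by group
      _ = k₀ * (A⁻¹ * A⁻¹) := ck₀ (A⁻¹ * A⁻¹)
      _ = (A * A * k₀⁻¹)⁻¹ := by group
  have hcomm : A * X * A⁻¹ * X⁻¹ = c := by
    rw [hcdef]
    calc A * X * A⁻¹ * X⁻¹ = A * (X * A * X⁻¹)⁻¹ := by group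
      _ = A * (A⁻¹ * k₀)⁻¹ := by rw [hXA]
      _ = A * (k₀⁻¹ * A) := by group
      _ = A * (A * k₀⁻¹) := by rw [ck₀i A]
      _ = A * A * k₀⁻¹ := by group
  -- N is normal
  let N : Subgroup Γ := Subgroup.zpowers c
  have hcN : c ∈ N := Subgroup.mem_zpowers c
  have conjmem : ∀ g : Γ, ∀ y ∈ N, g * y * g⁻¹ ∈ N := by
    have hA' : ∀ y ∈ N, A * y * A⁻¹ ∈ N := by
      intro y hy
      obtain ⟨i, rfl⟩ := Subgroup.mem_zpowers_iff.mp hy
      have : A * c ^ i * A⁻¹ = (A * c * A⁻¹) ^ i := by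
        rw [← MulAut.conj_apply, ← MulAut.conj_apply, map_zpow]
      rw [this, hAc]
      exact Subgroup.zpow_mem _ hcN i
    have hX' : ∀ y ∈ N, X * y * X⁻¹ ∈ N := by
      intro y hy
      obtain ⟨i, rfl⟩ := Subgroup.mem_zpowers_iff.mp hy
      have : X * c ^ i * X⁻¹ = (X * c * X⁻¹) ^ i := by
        rw [← MulAut.conj_apply, ← MulAut.conj_apply, map_zpow]
      rw [this, hXc]
      exact Subgroup.zpow_mem _ (Subgroup.inv_mem _ hcN) i
    have hAm : ∀ m : ℕ, ∀ y ∈ N, A ^ m * y * (A ^ m)⁻¹ ∈ N := by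
      intro m
      induction m with
      | zero => intro y hy; simpa using hy
      | succ m ih =>
        intro y hy
        have := hA' _ (ih y hy)
        have e : A ^ (m + 1) * y * (A ^ (m + 1))⁻¹ = A * (A ^ m * y * (A ^ m)⁻¹) * A⁻¹ := by
          rw [pow_succ']; group
        rw [e]; exact this
    have hXm : ∀ m : ℕ, ∀ y ∈ N, X ^ m * y * (X ^ m)⁻¹ ∈ N := by
      intro m
      induction m with
      | zero => intro y hy; simpa using hy
      | succ m ih =>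
        intro y hy
        have := hX' _ (ih y hy)
        have e : X ^ (m + 1) * y * (X ^ (m + 1))⁻¹ = X * (X ^ m * y * (X ^ m)⁻¹) * X⁻¹ := by
          rw [pow_succ']; group
        rw [e]; exact this
    intro g y hy
    obtain ⟨ε, m, k, hk, rfl⟩ := nf g
    have h1 := hXm ε _ (hAm m y hy)
    have e : k * X ^ ε * A ^ m * y * (k * X ^ ε * A ^ m)⁻¹
        = (k * (X ^ ε * (A ^ m * y * (A ^ m)⁻¹) * (X ^ ε)⁻¹)) * k⁻¹ := by group
    rw [e, ← cen k hk, mul_inv_cancel_right]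
    exact h1
  have : N.Normal := ⟨fun y hy g => conjmem g y hy⟩
  -- the quotient is commutative
  apply Subgroup.Normal.quotient_commutative_iff_commutator_le.mp
  refine ⟨⟨fun u v => ?_⟩⟩
  obtain ⟨g, rfl⟩ := QuotientGroup.mk'_surjective N u
  obtain ⟨h, rfl⟩ := QuotientGroup.mk'_surjective N v
  obtain ⟨ε, m, k, hk, rfl⟩ := nf g
  obtain ⟨ε', m', k', hk', rfl⟩ := nf h
  let π := QuotientGroup.mk' N
  have cXA : Commute (π X) (π A) := by
    have : π (A * X * A⁻¹ * X⁻¹) = 1 := by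
      rw [hcomm]; exact (QuotientGroup.eq_one_iff c).mpr hcN
    have h2 : π A * π X = π X * π A := by
      have e : π A * π X = π (A * X * A⁻¹ * X⁻¹) * (π X * π A) := by
        simp only [map_mul, map_inv]; group
      rw [e, this, one_mul]
    exact h2.symm
  have ck : ∀ k : Γ, σ k = 1 → ∀ y : Γ ⧸ N, Commute (π k) y := by
    intro k hk y
    obtain ⟨y, rfl⟩ := QuotientGroup.mk'_surjective N y
    change π k * π y = π y * π k
    rw [← map_mul, ← map_mul, cen k hk y]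
  have key : Commute (π k * π X ^ ε * π A ^ m) (π k' * π X ^ ε' * π A ^ m') := by
    refine Commute.mul_left (Commute.mul_left (ck k hk _) ?_) ?_
    · exact Commute.mul_right (Commute.mul_right (ck k' hk' _).symm
        (Commute.pow_pow (Commute.refl _) ε ε')) (cXA.pow_pow ε m')
    · exact Commute.mul_right (Commute.mul_right (ck k' hk' _).symm
        (cXA.symm.pow_pow m ε')) (Commute.pow_pow (Commute.refl _) m m')
  simpa [π, map_mul, map_pow] using key.eq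

/-- In the same setting, if `A ^ n` and `X ^ 2` have the same image, then `c ^ n = 1`. -/
theorem pow_eq_one {Γ G : Type*} [Group Γ] [Group G] (σ : Γ →* G)
    (hc : σ.ker ≤ Subgroup.center Γ) (A X : Γ)
    (hinv : σ X * σ A * (σ X)⁻¹ = (σ A)⁻¹) (n : ℕ) (hn : σ A ^ n = σ X ^ 2) :
    (A * A * (A * (X * A * X⁻¹))⁻¹) ^ n = 1 := by
  set k₀ := A * (X * A * X⁻¹) with hk₀
  have cen : ∀ k : Γ, σ k = 1 → ∀ y : Γ, y * k = k * y := fun k hk y =>
    Subgroup.mem_center_iff.mp (hc (MonoidHom.mem_ker.mpr hk)) y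
  have hk₀σ : σ k₀ = 1 := by
    rw [hk₀, map_mul, map_mul, map_mul, map_inv, hinv, mul_inv_cancel]
  have ck₀ := cen k₀ hk₀σ
  have hXA : X * A * X⁻¹ = A⁻¹ * k₀ := by rw [hk₀]; group
  -- z = A^n * (X^2)⁻¹ is central
  have hz : σ (A ^ n * (X ^ 2)⁻¹) = 1 := by
    rw [map_mul, map_inv, map_pow, map_pow, hn, mul_inv_cancel]
  have cz := cen _ hz
  have e1 : X * A ^ n * X⁻¹ = A ^ n := by
    have : A ^ n = (A ^ n * (X ^ 2)⁻¹) * X ^ 2 := by group
    calc X * A ^ n * X⁻¹ = X * ((A ^ n * (X ^ 2)⁻¹) * X ^ 2) * X⁻¹ := by rw [← this]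
      _ = (X * (A ^ n * (X ^ 2)⁻¹)) * X ^ 2 * X⁻¹ := by group
      _ = ((A ^ n * (X ^ 2)⁻¹) * X) * X ^ 2 * X⁻¹ := by rw [cz X]
      _ = (A ^ n * (X ^ 2)⁻¹) * X ^ 2 := by group
      _ = A ^ n := this.symm
  have e2 : X * A ^ n * X⁻¹ = (A⁻¹) ^ n * k₀ ^ n := by
    have : X * A ^ n * X⁻¹ = (X * A * X⁻¹) ^ n := by
      rw [← MulAut.conj_apply, ← MulAut.conj_apply, map_pow]
    rw [this, hXA]
    exact Commute.mul_pow (show Commute A⁻¹ k₀ from ck₀ A⁻¹) n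
  have e3 : A ^ n * A ^ n = k₀ ^ n := by
    have : A ^ n = (A⁻¹) ^ n * k₀ ^ n := e1.symm.trans e2
    calc A ^ n * A ^ n = A ^ n * ((A⁻¹) ^ n * k₀ ^ n) := by rw [← this]
      _ = k₀ ^ n := by rw [inv_pow]; group
  have cAA : Commute (A * A) k₀⁻¹ := by
    have h1 : Commute (A * A) k₀ := ck₀ (A * A)
    exact h1.inv_right
  rw [cAA.mul_pow, (Commute.refl A).mul_pow, e3, inv_pow, mul_inv_cancel]

end Cfsg.Agent.Lib.Lead.StemDihedralType
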